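import Cfsg.Agent.Spor.M21Classes
import Cfsg.Agent.Spor.M24Iso

/-!
# Class data of `L₃(4)` relative to an elementary abelian subgroup of order sixteen
-/

set_option autoImplicit false
set_option maxRecDepth 100000

namespace Cfsg.Lib.Four.L34

open Cfsg.Lib.Spor Cfsg.Lib.Spor.MP Finset

open scoped Classical in
/-- `r` normalises the family and the number of its fixed points is one modulo three. -/
def Nm {G : Type*} [Group G] (e : Fin 16 → G) (r : G) : Prop :=
  (∀ i, ∃ k, r * e i = e k * r) ∧ #{i | e i * r = r * e i} % 3 = 1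

/-- The exponents of five elements of `Q₈ ≤ SL₂(3)`. -/
def mq : Fin 5 → ℕ × ℕ × ℕ × ℕ :=
  ![(1, 0, 0, 1), (0, 1, 2, 0), (2, 0, 0, 2), (0, 2, 1, 0), (1, 1, 1, 2)]

/-- The facts about `L₃(4)` that are used. -/
structure Dat {G : Type*} [Group G] (e : Fin 16 → G) : Prop where
  inj : Function.Injective e
  zero : e 0 = 1
  mul : ∀ i j, ∃ k, e i * e j = e k
  sq : ∀ i, e i * e i = 1
  five : ∃ y : G, y ^ 5 = 1 ∧ (∀ i, ∃ k, e i * y = y * e k) ∧ ∃ i, y * e i ≠ e i * y
  inv : ∀ t : G, t * t = 1 → t ≠ 1 → IsConj (e 1) t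
  cls : ∀ g : G, ∃ r, IsConj r g ∧ (r ^ 3 = 1 ∨ (r ^ 7 = 1 ∧ IsConj (r ^ 6) (r ^ 3)) ∨
    (r * r = 1 ∧ r ≠ 1) ∨ (Nm e r ∧ ((r ^ 5 = 1 ∧ IsConj (r ^ 4) r) ∨ (r ^ 4 = 1 ∧ r ^ 2 ≠ 1))))
  three : ∃ (a b : G) (g : Fin 5 → G), a ^ 3 = 1 ∧ b ^ 3 = 1 ∧ a * b = b * a ∧ b ≠ 1 ∧
    (∀ k, g k * a = a ^ (mq k).1 * b ^ (mq k).2.1 * g k) ∧
      ∀ k, g k * b = a ^ (mq k).2.2.1 * b ^ (mq k).2.2.2 * g k

open scoped Classical in
/-- The element of `M21` described by a packed number. -/
noncomputable def el (t : ℕ) : M21 := if h : toPerm t ∈ M21 then ⟨toPerm t, h⟩ else 1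

/-- The packed number describes the element. -/
def R (g : M21) (p : ℕ) : Prop := Rep g.1 p

theorem R.of {t : ℕ} (h : isFix [23, 0, 1] t = true) : R (el t) t := by
  have := inSub_M21 h
  rw [R, el, dif_pos this.2]
  exact this.rep

theorem R.mul {g h : M21} {p q : ℕ} (hg : R g p) (hh : R h q) : R (g * h) (pmul p q) :=
  Rep.mul hg hh

theorem R.pow {g : M21} {p : ℕ} (hg : R g p) (n : ℕ) : R (g ^ n) (ppow p n) := Rep.pow hg n

theorem R.one : R 1 pid := rep_one

theorem R.eq_iff {g h : M21} {p q : ℕ} (hg : R g p) (hh : R h q) : g = h ↔ peq p q = true :=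
  Subtype.ext_iff.trans (Rep.eq_iff hg hh)

theorem R.conj {g h : M21} {p q : ℕ} (hg : R g p) (hh : R h q) (c : ℕ)
    (k : (isFix [23, 0, 1] c && peq (pmul c p) (pmul q c)) = true) : IsConj g h := by
  rw [Bool.and_eq_true] at k
  have hc := R.of k.1
  exact isConj_iff.2 ⟨el c, mul_inv_eq_iff_eq_mul.2 (((hc.mul hg).eq_iff (hh.mul hc)).2 k.2)⟩

/-- The elementary abelian group of order sixteen. -/
def eL : Fin 16 → ℕ :=
  ![984818244535754528103549039458486304, 981818691054096003685363657089320992,
    965128854020860192151391391390468128, 963721886883755259286232606933354528,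
    979121071158219704299181131031480352, 968708902336673183175954409307867168,
    967812279691448225500382947153381408, 971592882964418941354553515258775584,
    970499966350631336865513127433832480, 976448692869377735270425038196672544,
    972512676110088067912772961567868960, 966182099583441531322624363496310816,
    983548720921252936276249910206105632, 975346028712660580592452217730074656,
    980224387687010295957922729495201824, 961365507626256404119956257276790816]

theorem R.e (i : Fin 16) : R (el (eL i)) (eL i) :=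
  R.of ((by decide +kernel : ∀ i, isFix [23, 0, 1] (eL i) = true) i)

theorem R.nm {g : M21} {p : ℕ} (hg : R g p)
    (h1 : ∀ i, ∃ k, peq (pmul p (eL i)) (pmul (eL k) p) = true)
    (h2 : #{i | peq (pmul (eL i) p) (pmul p (eL i)) = true} % 3 = 1) :
    Nm (fun i => el (eL i)) g := by
  refine ⟨fun i => (h1 i).imp fun k hk => ((hg.mul (R.e i)).eq_iff ((R.e k).mul hg)).2 hk, ?_⟩
  rw [← h2]
  congr 2
  ext i
  simp only [mem_filter, mem_univ, true_and]
  exact ((R.e i).mul hg).eq_iff (hg.mul (R.e i))

theorem exists_rep (g : M21) : ∃ r ∈ reps21, ∃ x : M21, R x r.1 ∧ IsConj x g := by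
  obtain ⟨r, hr, c, hc, e⟩ := isClassList_M21.all g.1 g.2
  have h := isClassList_M21.mem r hr
  exact ⟨r, hr, ⟨_, h.2⟩, h.rep, isConj_iff.2 ⟨⟨c, hc⟩, Subtype.ext e⟩⟩

theorem four {x g : M21} {p : ℕ} (hx : R x p) (hg : IsConj x g) (s c : ℕ)
    (h0 : isFix [23, 0, 1] s = true)
    (k : (isFix [23, 0, 1] c && peq (pmul c p) (pmul s c)) = true)
    (h1 : ∀ i, ∃ k, peq (pmul s (eL i)) (pmul (eL k) s) = true)
    (h2 : #{i | peq (pmul (eL i) s) (pmul s (eL i)) = true} % 3 = 1)
    (h3 : peq (ppow s 4) pid = true) (h4 : peq (ppow s 2) pid = false) :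
    ∃ r, IsConj r g ∧ Nm (fun i => el (eL i)) r ∧ r ^ 4 = 1 ∧ r ^ 2 ≠ 1 := by
  have hs := R.of h0
  refine ⟨el s, (hx.conj hs c k).symm.trans hg, hs.nm h1 h2, ((hs.pow 4).eq_iff R.one).2 h3,
    fun e => ?_⟩
  rw [((hs.pow 2).eq_iff R.one).1 e] at h4
  cases h4

theorem five {x g : M21} {p : ℕ} (hx : R x p) (hg : IsConj x g) (s c d : ℕ)
    (h0 : isFix [23, 0, 1] s = true)
    (k : (isFix [23, 0, 1] c && peq (pmul c p) (pmul s c)) = true)
    (h1 : ∀ i, ∃ k, peq (pmul s (eL i)) (pmul (eL k) s) = true)
    (h2 : #{i | peq (pmul (eL i) s) (pmul s (eL i)) = true} % 3 = 1)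
    (h3 : peq (ppow s 5) pid = true)
    (h4 : (isFix [23, 0, 1] d && peq (pmul d (ppow s 4)) (pmul s d)) = true) :
    ∃ r, IsConj r g ∧ Nm (fun i => el (eL i)) r ∧ r ^ 5 = 1 ∧ IsConj (r ^ 4) r := by
  have hs := R.of h0
  exact ⟨el s, (hx.conj hs c k).symm.trans hg, hs.nm h1 h2, ((hs.pow 5).eq_iff R.one).2 h3,
    (hs.pow 4).conj hs d h4⟩

/-- The five elements normalising the group of order nine. -/
def gL : Fin 5 → ℕ :=
  ![984818244535754528103549039458486304, 984654197592348924412248369272164384,
    984556696046180253327513914419054624, 984398679572955961194172041566425120,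
    978192873765646585108753757136921632]

theorem dat_M21 : Dat fun i => el (eL i) where
  inj i j h := (by decide +kernel : ∀ i j, peq (eL i) (eL j) = true → i = j) i j
    (((R.e i).eq_iff (R.e j)).1 h)
  zero := ((R.e 0).eq_iff R.one).2 (by decide +kernel)
  mul i j := ((by decide +kernel : ∀ i j, ∃ k, peq (pmul (eL i) (eL j)) (eL k) = true) i j).imp
    fun k hk => (((R.e i).mul (R.e j)).eq_iff (R.e k)).2 hk
  sq i := (((R.e i).mul (R.e i)).eq_iff R.one).2
    ((by decide +kernel : ∀ i, peq (pmul (eL i) (eL i)) pid = true) i)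
  five := by
    have hy := R.of (t := 965373234394023799479188878357206048) (by decide +kernel)
    refine ⟨_, ((hy.pow 5).eq_iff R.one).2 (by decide +kernel), fun i =>
      ((by decide +kernel : ∀ i, ∃ k, peq (pmul (eL i) 965373234394023799479188878357206048)
        (pmul 965373234394023799479188878357206048 (eL k)) = true) i).imp
        fun k hk => (((R.e i).mul hy).eq_iff (hy.mul (R.e k))).2 hk, 1, fun h => ?_⟩
    exact absurd (((hy.mul (R.e 1)).eq_iff ((R.e 1).mul hy)).1 h) (by decide +kernel)
  inv t h1 h2 := by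
    obtain ⟨r, hr, x, hx, hc⟩ := exists_rep t
    obtain ⟨c, rfl⟩ := isConj_iff.1 hc
    have h3 : x * x = 1 := by simpa [mul_assoc] using congrArg (fun z => c⁻¹ * z * c) h1
    have h4 : x ≠ 1 := fun h => h2 (by simp [h])
    have h5 : r.1 = eL 1 := (by decide +kernel : ∀ r ∈ reps21, peq (pmul r.1 r.1) pid = true →
      peq r.1 pid = true ∨ r.1 = eL 1) r hr (((hx.mul hx).eq_iff R.one).1 h3) |>.resolve_left
        fun h => h4 ((hx.eq_iff R.one).2 h)
    rw [h5] at hx
    rwa [Subtype.ext (Rep.unique (R.e 1) hx)]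
  cls g := by
    obtain ⟨r, hr, x, hx, hc⟩ := exists_rep g
    simp only [reps21, List.mem_cons, List.not_mem_nil, or_false] at hr
    rcases hr with rfl | rfl | rfl | rfl | rfl | rfl | rfl | rfl | rfl | rfl
    · exact ⟨x, hc, .inl (((hx.pow 3).eq_iff R.one).2 (by decide +kernel))⟩
    · exact ⟨x, hc, .inr (.inr (.inl ⟨((hx.mul hx).eq_iff R.one).2 (by decide +kernel),
        fun h => absurd ((hx.eq_iff R.one).1 h) (by decide +kernel)⟩))⟩
    · exact ⟨x, hc, .inl (((hx.pow 3).eq_iff R.one).2 (by decide +kernel))⟩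
    · obtain ⟨r, h1, h2, h3⟩ := four hx hc 964655101679034793884593747619121184
        983063401360178586603532053144274976 (by decide +kernel) (by decide +kernel)
        (by decide +kernel) (by decide +kernel) (by decide +kernel) (by decide +kernel)
      exact ⟨r, h1, .inr (.inr (.inr ⟨h2, .inr h3⟩))⟩
    · obtain ⟨r, h1, h2, h3⟩ := four hx hc 967580415455907411547662912282200096
        964684070675478831972175042454882336 (by decide +kernel) (by decide +kernel)
        (by decide +kernel) (by decide +kernel) (by decide +kernel) (by decide +kernel)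
      exact ⟨r, h1, .inr (.inr (.inr ⟨h2, .inr h3⟩))⟩
    · obtain ⟨r, h1, h2, h3⟩ := four hx hc 963348160910017000073269771345889312
        964684070675478831972175042454882336 (by decide +kernel) (by decide +kernel)
        (by decide +kernel) (by decide +kernel) (by decide +kernel) (by decide +kernel)
      exact ⟨r, h1, .inr (.inr (.inr ⟨h2, .inr h3⟩))⟩
    · obtain ⟨r, h1, h2, h3⟩ := five hx hc 965373234394023799479188878357206048
        965252696091786596361290190799704096 984235865005994746954145143334668320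
        (by decide +kernel) (by decide +kernel) (by decide +kernel) (by decide +kernel)
        (by decide +kernel) (by decide +kernel)
      exact ⟨r, h1, .inr (.inr (.inr ⟨h2, .inl h3⟩))⟩
    · obtain ⟨r, h1, h2, h3⟩ := five hx hc 981655403717921795020490964633848864
        965252696091786596361290190799704096 984235865005994746954145143334668320
        (by decide +kernel) (by decide +kernel) (by decide +kernel) (by decide +kernel)
        (by decide +kernel) (by decide +kernel)
      exact ⟨r, h1, .inr (.inr (.inr ⟨h2, .inl h3⟩))⟩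
    · exact ⟨x, hc, .inr (.inl ⟨((hx.pow 7).eq_iff R.one).2 (by decide +kernel),
        (hx.pow 6).conj (hx.pow 3) 978361505956401464286340174541195296 (by decide +kernel)⟩)⟩
    · exact ⟨x, hc, .inr (.inl ⟨((hx.pow 7).eq_iff R.one).2 (by decide +kernel),
        (hx.pow 6).conj (hx.pow 3) 978361505956401464286340174541195296 (by decide +kernel)⟩)⟩
  three := by
    have ha := R.of (t := 975754295934893126319599781779965984) (by decide +kernel)
    have hb := R.of (t := 970399585714193774510844046869924896) (by decide +kernel)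
    have hg : ∀ k, R (el (gL k)) (gL k) := fun k =>
      R.of ((by decide +kernel : ∀ k, isFix [23, 0, 1] (gL k) = true) k)
    refine ⟨_, _, fun k => el (gL k), ((ha.pow 3).eq_iff R.one).2 (by decide +kernel),
      ((hb.pow 3).eq_iff R.one).2 (by decide +kernel),
      ((ha.mul hb).eq_iff (hb.mul ha)).2 (by decide +kernel),
      fun h => absurd ((hb.eq_iff R.one).1 h) (by decide +kernel),
      fun k => (((hg k).mul ha).eq_iff (((ha.pow _).mul (hb.pow _)).mul (hg k))).2 ?_,
      fun k => (((hg k).mul hb).eq_iff (((ha.pow _).mul (hb.pow _)).mul (hg k))).2 ?_⟩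
    · revert k; decide +kernel
    · revert k; decide +kernel

end Cfsg.Lib.Four.L34
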