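import Cfsg.Agent.Class.Tv

/-!
# Four homologies of order three satisfying the braid relations
-/

set_option autoImplicit false

namespace Cfsg.Lib.Four.U42

open Matrix

variable {K : Type*} [Field K] {w : K}

/-- The homology with centre `a` and axis `f`. -/
def hm (w : K) (a f : Fin 4 → K) : Matrix (Fin 4) (Fin 4) K := w • 1 + (1 - w) • vecMulVec a f

/-- A homology with eigenvalues `1, w, w, w`. -/
def Hm (w : K) (M : Matrix (Fin 4) (Fin 4) K) : Prop := ∃ a f, f ⬝ᵥ a = 1 ∧ M = hm w a f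

theorem hm_smul {c : K} (hc : c ≠ 0) (a f : Fin 4 → K) : hm w (c • a) (c⁻¹ • f) = hm w a f := by
  rw [hm, hm, smul_vecMulVec, vecMulVec_smul, smul_smul c, mul_inv_cancel₀ hc, one_smul]

theorem Hm.conj {M A B : Matrix (Fin 4) (Fin 4) K} (h : Hm w M) (e : B * A = 1) :
    Hm w (A * M * B) := by
  obtain ⟨a, f, h1, rfl⟩ := h
  refine ⟨A *ᵥ a, f ᵥ* B, by rw [← dotProduct_mulVec, mulVec_mulVec, e, one_mulVec, h1], ?_⟩
  rw [hm, hm, mul_add, add_mul, mul_smul_comm, mul_smul_comm, smul_mul_assoc, smul_mul_assoc,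
    mul_one, mul_eq_one_comm.1 e, mul_vecMulVec, vecMulVec_mul]

theorem vv (a f b g : Fin 4 → K) : vecMulVec a f * vecMulVec b g = (f ⬝ᵥ b) • vecMulVec a g := by
  rw [vecMulVec_mul_vecMulVec, vecMulVec_smul]

theorem one_sub_ne (hw : w ^ 2 + w + 1 = 0) (h3 : (3 : K) ≠ 0) : 1 - w ≠ 0 := fun e =>
  h3 (by linear_combination hw + (w + 2) * e)

theorem w_ne (hw : w ^ 2 + w + 1 = 0) : w ≠ 0 := fun e => by simp [e] at hw

variable {a f b g : Fin 4 → K}

theorem dot_of_comm (hw : w ^ 2 + w + 1 = 0) (h3 : (3 : K) ≠ 0) (h1 : f ⬝ᵥ a = 1)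
    (h2 : g ⬝ᵥ b = 1) (hc : hm w a f * hm w b g = hm w b g * hm w a f)
    (hne : hm w a f ≠ hm w b g) : f ⬝ᵥ b = 0 := by
  have hu := one_sub_ne hw h3
  have e : (f ⬝ᵥ b) • vecMulVec a g = (g ⬝ᵥ a) • vecMulVec b f := by
    simp only [hm, mul_add, add_mul, mul_smul_comm, smul_mul_assoc, mul_one, one_mul, vv] at hc
    refine smul_right_injective _ (pow_ne_zero 2 hu) ?_
    linear_combination (norm := module) hc
  by_contra h0
  have e1 := congrArg (· * vecMulVec b f) e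
  have e2 := congrArg (vecMulVec a g * ·) e
  have e3 := congrArg (vecMulVec b f * ·) e
  simp only [smul_mul_assoc, mul_smul_comm, vv, h1, h2, one_smul, smul_smul] at e1 e2 e3
  rw [mul_comm, mul_smul] at e1 e3
  apply hne
  rw [hm, hm, smul_right_injective _ h0 e1, smul_right_injective _ h0 e3]

theorem dot_of_braid (hw : w ^ 2 + w + 1 = 0) (h3 : (3 : K) ≠ 0) (h1 : f ⬝ᵥ a = 1)
    (h2 : g ⬝ᵥ b = 1) (hc : hm w a f * hm w b g * hm w a f = hm w b g * hm w a f * hm w b g)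
    (hne : hm w a f ≠ hm w b g) : 3 * ((f ⬝ᵥ b) * (g ⬝ᵥ a)) = 1 := by
  have hu := one_sub_ne hw h3
  have e : (w ^ 2 * (1 - w) + w * (1 - w) ^ 2 + (1 - w) ^ 3 * ((f ⬝ᵥ b) * (g ⬝ᵥ a))) •
      (vecMulVec a f - vecMulVec b g) = 0 := by
    simp only [hm, mul_add, add_mul, mul_smul_comm, smul_mul_assoc, mul_one, one_mul, vv, h1,
      h2] at hc
    linear_combination (norm := module) hc
  rcases smul_eq_zero.1 e with e | e
  · refine mul_left_cancel₀ (mul_ne_zero hu (w_ne hw)) ?_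
    linear_combination -e + (1 - w) * ((f ⬝ᵥ b) * (g ⬝ᵥ a)) * hw
  · exact absurd (by rw [hm, hm, sub_eq_zero.1 e]) hne

/-- The Gram matrix. -/
noncomputable def gr (w : K) : Matrix (Fin 4) (Fin 4) K :=
  !![1, (1 - w)⁻¹, 0, 0; (1 - w ^ 2)⁻¹, 1, (1 - w)⁻¹, 0; 0, (1 - w ^ 2)⁻¹, 1, (1 - w)⁻¹;
    0, 0, (1 - w ^ 2)⁻¹, 1]

/-- The generators in normal form. -/
noncomputable def nf (w : K) (i : Fin 4) : Matrix (Fin 4) (Fin 4) K :=
  w • 1 + (1 - w) • (single i i 1 * gr w)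

theorem three_mul (hw : w ^ 2 + w + 1 = 0) (h3 : (3 : K) ≠ 0) :
    3 * ((1 - w)⁻¹ * (1 - w ^ 2)⁻¹) = 1 := by
  have : (1 - w) * (1 - w ^ 2) = 3 := by linear_combination (w - 2) * hw
  rw [← mul_inv, this, mul_inv_cancel₀ h3]

theorem det_gr (hw : w ^ 2 + w + 1 = 0) (h3 : (3 : K) ≠ 0) : (gr w).det ≠ 0 := by
  have h := three_mul hw h3
  have : 9 * (gr w).det = 1 := by
    simp only [gr]
    generalize (1 - w)⁻¹ = s at *
    generalize (1 - w ^ 2)⁻¹ = t at *
    simp [det_succ_row_zero, Fin.sum_univ_succ, Fin.succAbove]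
    linear_combination (3 * s * t - 8) * h
  intro e
  simp [e] at this

/-- The normal form of four homologies. -/
theorem exists_nf (hw : w ^ 2 + w + 1 = 0) (h3 : (3 : K) ≠ 0)
    {Y : Fin 4 → Matrix (Fin 4) (Fin 4) K} (hY : ∀ i, Hm w (Y i)) (hne : ∀ i j, i ≠ j → Y i ≠ Y j)
    (hb : ∀ i j : Fin 4, i.val + 1 = j → Y i * Y j * Y i = Y j * Y i * Y j)
    (hc : ∀ i j : Fin 4, i.val + 1 < j → Y i * Y j = Y j * Y i) :
    ∃ A : Matrix (Fin 4) (Fin 4) K, IsUnit A.det ∧ ∀ i, Y i * A = A * nf w i := by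
  choose a f h1 h2 using hY
  obtain rfl : Y = fun i => hm w (a i) (f i) := funext h2
  have hs := three_mul hw h3
  have hu := inv_ne_zero (one_sub_ne hw h3)
  have b : ∀ i j : Fin 4, i.val + 1 = j → 3 * ((f i ⬝ᵥ a j) * (f j ⬝ᵥ a i)) = 1 := fun i j e =>
    dot_of_braid hw h3 (h1 i) (h1 j) (hb i j e) (hne i j (by omega))
  have b0 : ∀ i j : Fin 4, i.val + 1 = j → f i ⬝ᵥ a j ≠ 0 := fun i j e k => by
    simpa [k] using b i j e
  have z : ∀ i j : Fin 4, i.val + 1 < j → f i ⬝ᵥ a j = 0 ∧ f j ⬝ᵥ a i = 0 := fun i j e =>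
    ⟨dot_of_comm hw h3 (h1 i) (h1 j) (hc i j e) (hne i j (by omega)),
      dot_of_comm hw h3 (h1 j) (h1 i) (hc i j e).symm (hne j i (by omega))⟩
  set s := (1 - w)⁻¹ with hsd
  set t := (1 - w ^ 2)⁻¹ with htd
  let c : Fin 4 → K := ![1, s / (f 0 ⬝ᵥ a 1), s / (f 0 ⬝ᵥ a 1) * (s / (f 1 ⬝ᵥ a 2)),
    s / (f 0 ⬝ᵥ a 1) * (s / (f 1 ⬝ᵥ a 2)) * (s / (f 2 ⬝ᵥ a 3))]
  have b1 := b0 0 1 rfl
  have b2 := b0 1 2 rfl
  have b3 := b0 2 3 rfl
  have hc0 : ∀ i, c i ≠ 0 := fun i => by fin_cases i <;> simp [c, hu, b1, b2, b3]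
  let A : Matrix (Fin 4) (Fin 4) K := (of fun j => c j • a j)ᵀ
  let Φ : Matrix (Fin 4) (Fin 4) K := of fun i => (c i)⁻¹ • f i
  have key : ∀ x y : K, x ≠ 0 → 3 * (x * y) = 1 → (s / x)⁻¹ * y = t := fun x y hx e => by
    field_simp
    refine mul_left_cancel₀ h3 ?_
    linear_combination e - hs
  have hD : Φ * A = gr w := by
    have e : ∀ i j, (Φ * A) i j = (c i)⁻¹ * c j * (f i ⬝ᵥ a j) := fun i j => by
      show ((c i)⁻¹ • f i) ⬝ᵥ (c j • a j) = _
      rw [smul_dotProduct, dotProduct_smul, smul_eq_mul, smul_eq_mul, mul_assoc]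
    have k1 := key _ _ b1 (b 0 1 rfl)
    have k2 := key _ _ b2 (b 1 2 rfl)
    have k3 := key _ _ b3 (b 2 3 rfl)
    have z1 := z 0 2 (by decide)
    have z2 := z 0 3 (by decide)
    have z3 := z 1 3 (by decide)
    have n0 := hc0 0
    have n1 := hc0 1
    have n2 := hc0 2
    have n3 := hc0 3
    ext i j
    rw [e]
    fin_cases i <;> fin_cases j <;>
      simp [gr, h1, z1.1, z1.2, z2.1, z2.2, z3.1, z3.2, n0, n1, n2, n3, ← hsd, ← htd]
    all_goals first
      | (simp [c]; field_simp; done)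
      | (rw [← k1]; simp [c]; done)
      | (rw [← k2]; simp [c]; field_simp; simp; done)
      | (rw [← k3]; simp [c]; field_simp; simp)
  refine ⟨A, isUnit_iff_ne_zero.2 fun e => det_gr hw h3 (by rw [← hD, det_mul, e, mul_zero]),
    fun i => ?_⟩
  show hm w (a i) (f i) * A = _
  have e : vecMulVec (c i • a i) ((c i)⁻¹ • f i) = A * single i i 1 * Φ := by
    ext k l
    simp [A, Φ, mul_apply, single_apply, vecMulVec_apply, ite_and]
  rw [← hm_smul (hc0 i), hm, nf, ← hD, e]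
  simp only [mul_add, add_mul, mul_smul_comm, smul_mul_assoc, mul_one, one_mul, mul_assoc]

variable {σ : K →+* K}

theorem nf_map (h : σ w = w) (i : Fin 4) : (nf w i).map σ = nf w i := by
  have : (gr w).map σ = gr w := by
    ext k l
    fin_cases k <;> fin_cases l <;> simp [gr, h]
  rw [nf, ← RingHom.mapMatrix_apply, map_add]
  simp only [RingHom.mapMatrix_apply, map_smul' _ _ _ σ.map_mul, Matrix.map_mul, this]
  simp [h]

theorem nf_herm (hw : w ^ 2 + w + 1 = 0) (h : σ w = w ^ 2) (i : Fin 4) :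
    ((nf w i).map σ)ᵀ * gr w * nf w i = gr w := by
  have h4 : (w ^ 2) ^ 2 = w := by linear_combination (w ^ 2 - w) * hw
  have : ((gr w).map σ)ᵀ = gr w := by
    ext k l
    fin_cases k <;> fin_cases l <;> simp [gr, h, h4]
  have e : ((nf w i).map σ)ᵀ = w ^ 2 • 1 + (1 - w ^ 2) • (gr w * single i i 1) := by
    rw [nf, ← RingHom.mapMatrix_apply, map_add]
    simp only [RingHom.mapMatrix_apply, map_smul' _ _ _ σ.map_mul, Matrix.map_mul, transpose_add,
      transpose_smul, transpose_mul, this]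
    simp [h]
  have k : single i i (1 : K) * (gr w * (single i i 1 * gr w)) = single i i 1 * gr w := by
    rw [← mul_assoc, ← mul_assoc, single_mul_mul_single,
      show gr w i i = 1 by fin_cases i <;> simp [gr]]
    simp
  rw [e, nf]
  simp only [mul_add, add_mul, mul_smul_comm, smul_mul_assoc, mul_one, one_mul, mul_assoc, k]
  match_scalars
  · linear_combination (w - 1) * hw
  · linear_combination (1 - w) * hw

end Cfsg.Lib.Four.U42
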